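import Cfsg.Agent.Schur.Swap
import Cfsg.Agent.Comp.Sign

/-!
Tables of networks for subgroups.
-/

set_option autoImplicit false

namespace Cfsg.Agent.Schur

open Cfsg.Agent.Comp Subgroup

/-- the first letters are the words `V` in the letters from `o` on -/
def subEqs (o : ℕ) (V : List (List ℕ)) : List (List ℕ × List ℕ) :=
  (List.range V.length).map fun i => ([i], (V.getD i []).map (o + ·))

theorem sig_append_left (T T' : List Net) {x : ℕ} (hx : x < T.length) :
    sig (T ++ T') x = sig T x := by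
  simp [sig, nth_eq, List.getD_eq_getElem?_getD, List.getElem?_append_left hx]

theorem allIn_sub {G : Type*} [Group G] {s : ℕ → G} {L n o : ℕ} {T T' : List Net}
    {φ : G →* Equiv.Perm ℕ} (h : Rep s L n T φ) {K : Subgroup G} {V : List (List ℕ)}
    (hV : ∀ w ∈ V, ∀ x ∈ w, x < L) (hK : genW s V ≤ K) (ho : T'.length = o) (hl : V.length ≤ o)
    (hD : ∀ e ∈ subEqs o V, ev (sig (T' ++ T)) e.1 = ev (sig (T' ++ T)) e.2)
    {E : List (List ℕ × List ℕ)} (hE : ∀ e ∈ E, ev (sig T') e.1 = ev (sig T') e.2)
    (hc : defsOK o E (fun x => Nat.ble (Nat.succ x) V.length) = true) :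
    AllIn (φ.comp K.subtype).range T' := by
  rw [MonoidHom.range_comp, range_subtype]
  refine AllIn.of_lt (ho ▸ mem_of_defsOK hE _ (fun x hx => ?_) hc)
  have hx : x < V.length := Nat.le_of_ble_eq_true hx
  have h1 := hD _ (List.mem_map.mpr ⟨x, List.mem_range.mpr hx, rfl⟩)
  rw [ev_single, sig_append_left _ _ (by omega), ev_map] at h1
  simp only [← ho, sig_append] at h1
  rw [h1, List.getD_eq_getElem _ _ hx]
  exact h.mem_map hV hK (ev_mem_genW (List.getElem_mem _))

end Cfsg.Agent.Schur
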